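import Mathlib
import Cfsg.Agent.Lib.Helper58.UPair.Defs

/-!
UPAIR (S5984), package [CARDK] (helper6): the matrices of `GL_m(q²)` with determinant in `F_q`
have index `q + 1`.
-/

set_option autoImplicit false

open scoped MatrixGroups

namespace Cfsg.Agent.Lib.Helper6.UPair

universe u

theorem pkgCardK : Cfsg.Agent.Lib.Helper58.UPair.PkgCardK.{u} := by
  intro F _ _ q m hcard hm
  classical
  have : Nonempty (Fin m) := ⟨⟨0, by omega⟩⟩
  have hq2 : 2 ≤ q := by
    by_contra h
    have hq1 : q ≤ 1 := by omega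
    have hc : 1 < Fintype.card F := Fintype.one_lt_card
    rw [hcard] at hc
    have : q ^ 2 ≤ 1 ^ 2 := Nat.pow_le_pow_left hq1 2
    omega
  let φ : GL (Fin m) F →* Fˣ :=
    (powMonoidHom (q - 1) : Fˣ →* Fˣ).comp Matrix.GeneralLinearGroup.det
  have hker : ∀ A : GL (Fin m) F,
      ((A : Matrix (Fin m) (Fin m) F).det ^ (q - 1) = 1) ↔ A ∈ φ.ker := by
    intro A
    rw [MonoidHom.mem_ker]
    show _ ↔ (Matrix.GeneralLinearGroup.det A) ^ (q - 1) = 1
    rw [Units.ext_iff]
    simp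
  have hcardker : Nat.card {A : GL (Fin m) F // (A : Matrix (Fin m) (Fin m) F).det ^ (q - 1) = 1} =
      Nat.card φ.ker :=
    Nat.card_congr (Equiv.subtypeEquivRight hker)
  have hrange : φ.range = (powMonoidHom (q - 1) : Fˣ →* Fˣ).range := by
    ext u
    constructor
    · rintro ⟨A, rfl⟩
      exact ⟨Matrix.GeneralLinearGroup.det A, rfl⟩
    · rintro ⟨v, rfl⟩
      obtain ⟨A, hA⟩ := Matrix.GeneralLinearGroup.det_surjective (n := Fin m) (R := F) v
      exact ⟨A, by show (powMonoidHom (q - 1)) (Matrix.GeneralLinearGroup.det A) = _; rw [hA]⟩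
  have hunits : Nat.card Fˣ = q ^ 2 - 1 := by
    rw [Nat.card_units, Nat.card_eq_fintype_card, hcard]
  have hfac : q ^ 2 - 1 = (q - 1) * (q + 1) := by
    obtain ⟨k, rfl⟩ : ∃ k, q = k + 1 := ⟨q - 1, by omega⟩
    have : (k + 1) ^ 2 - 1 = (k + 1 - 1) * (k + 1 + 1) := by
      have e : (k + 1) ^ 2 = k * (k + 2) + 1 := by ring
      rw [e]
      simp
    exact this
  have hrc : Nat.card φ.range = q + 1 := by
    rw [hrange, IsCyclic.card_powMonoidHom_range, hunits, hfac]
    have hg : ((q - 1) * (q + 1)).gcd (q - 1) = q - 1 :=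
      Nat.gcd_eq_right (Dvd.intro _ rfl)
    rw [hg]
    exact Nat.mul_div_cancel_left _ (by omega)
  rw [hcardker, ← hrc, ← Subgroup.index_ker]
  exact Subgroup.card_mul_index _

end Cfsg.Agent.Lib.Helper6.UPair
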