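import Mathlib
import Cfsg.Agent.Lib.Helper58.UPair.Defs

/-!
UPAIR (S5984), package [ZDICH] (helper6): a norm-1 element of `F_{q²}` (`q` odd) is `l²` with
`l` of norm `1` or of norm `-1`.
-/

set_option autoImplicit false

namespace Cfsg.Agent.Lib.Helper6.UPair

universe u

theorem pkgZDich : Cfsg.Agent.Lib.Helper58.UPair.PkgZDich.{u} := by
  intro F _ _ q z hcard hq hz
  have hF : ringChar F ≠ 2 := by
    intro h
    have h2 := FiniteField.even_card_iff_char_two.mp h
    rw [hcard] at h2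
    have hodd : Odd (q ^ 2) := hq.pow
    rcases hodd with ⟨k, hk⟩
    omega
  have hz0 : z ≠ 0 := by
    intro h
    rw [h, zero_pow (by omega)] at hz
    exact zero_ne_one hz
  have hhalf : Fintype.card F / 2 = (q + 1) * ((q - 1) / 2) := by
    rw [hcard]
    rcases hq with ⟨k, rfl⟩
    have e1 : (2 * k + 1) ^ 2 = 2 * (2 * k * k + 2 * k) + 1 := by ring
    have e2 : (2 * k + 1 - 1) / 2 = k := by omega
    rw [e1, e2]
    have e3 : (2 * (2 * k * k + 2 * k) + 1) / 2 = 2 * k * k + 2 * k := by omega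
    rw [e3]
    ring
  have hsq : IsSquare z := by
    rw [FiniteField.isSquare_iff hF hz0, hhalf, pow_mul, hz, one_pow]
  obtain ⟨l, hl⟩ := hsq
  have hl2 : l ^ 2 = z := by rw [pow_two, hl]
  have h1 : l ^ (q + 1) * l ^ (q + 1) = 1 := by
    rw [← mul_pow, ← hl, hz]
  rcases mul_self_eq_one_iff.mp h1 with h | h
  · exact Or.inl ⟨l, hl2, h⟩
  · exact Or.inr ⟨l, hl2, h⟩

end Cfsg.Agent.Lib.Helper6.UPair
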